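import Cfsg.Agent.H3.B6
import Cfsg.Agent.H3.B3
import Mathlib.LinearAlgebra.Matrix.GeneralLinearGroup.Card

/-! `p`-groups transitive on the non-zero vectors (`Imp.trans_class`); number theory
`two_pow_eq` (`2^n = p^a + 1`), `pow_eq_two_pow` (`q^n = 2^a + 1`). -/

set_option autoImplicit false

namespace H3.Imp
open Subgroup Cfsg H18
open scoped commutatorElement

theorem odd_cofactor {x a : ℕ} (ha : Odd a) (hx : Odd x) :
    ∃ c, Odd c ∧ x ^ a + 1 = (x + 1) * c := by
  obtain ⟨k, rfl⟩ := ha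
  induction k with
  | zero => exact ⟨1, odd_one, by simp⟩
  | succ k ih =>
    obtain ⟨c, hc, e⟩ := ih
    obtain ⟨y, rfl⟩ := hx
    refine ⟨c + (2 * y + 1) ^ (2 * k + 1) * (2 * y), hc.add_even ⟨(2 * y + 1) ^ (2 * k + 1) * y, by ring⟩, ?_⟩
    rw [mul_add (2 * y + 1 + 1), ← e]; ring

theorem two_pow_eq {p n a : ℕ} (hp : Odd p) (ha : a ≠ 0) (hp1 : p ≠ 1) (h : 2 ^ n = p ^ a + 1) : a = 1 := by
  have hp2 : 2 ≤ p := by obtain ⟨y, rfl⟩ := hp; omega
  rcases Nat.even_or_odd a with ⟨b, rfl⟩ | ho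
  · exfalso
    obtain ⟨y, hy⟩ := hp.pow (n := b)
    have h1 : 1 < p ^ b := Nat.one_lt_pow (by omega) hp2
    rw [pow_add, hy] at h
    match n with
    | 0 => simp at h
    | 1 => nlinarith
    | n + 2 =>
      have : 2 ^ (n + 2) = 4 * 2 ^ n := by ring
      have h2 : (2 * y + 1) * (2 * y + 1) + 1 = 4 * (y * y + y) + 2 := by ring
      omega
  · obtain ⟨c, hc, e⟩ := odd_cofactor ho hp
    have h1 : c ∣ 2 ^ n := h ▸ e ▸ Dvd.intro_left _ rfl
    have h2 : c = 1 := Nat.eq_one_of_dvd_coprimes (Nat.Coprime.pow_right n hc.coprime_two_right) dvd_rfl h1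
    rw [h2, mul_one, add_left_inj] at e
    exact Nat.pow_right_injective hp2 (e.trans (pow_one p).symm)

theorem pow_eq_two_pow {q n a : ℕ} (hq : Odd q) (hq1 : q ≠ 1) (h : q ^ n = 2 ^ a + 1) :
    n = 1 ∨ (q = 3 ∧ n = 2) := by
  have hq2 : 3 ≤ q := by obtain ⟨y, rfl⟩ := hq; omega
  rcases Nat.even_or_odd n with ⟨b, rfl⟩ | ho
  · right
    obtain ⟨y, hy⟩ := hq.pow (n := b)
    rw [pow_add, hy] at h
    have h1 : y * (y + 1) * 4 = 2 ^ a := by nlinarith
    have h2 : y ∣ 2 ^ a := h1 ▸ Dvd.dvd.mul_right (Dvd.intro _ rfl) _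
    have h3 : y + 1 ∣ 2 ^ a := h1 ▸ Dvd.dvd.mul_right (Dvd.intro_left _ rfl) _
    have h4 : y = 1 := by
      rcases Nat.even_or_odd y with he | ho
      · have : y + 1 = 1 := Nat.eq_one_of_dvd_coprimes
          (Nat.Coprime.pow_right a he.add_one.coprime_two_right) dvd_rfl h3
        have h0 : y = 0 := by omega
        subst h0
        have := Nat.two_pow_pos a
        omega
      · exact Nat.eq_one_of_dvd_coprimes (Nat.Coprime.pow_right a ho.coprime_two_right) dvd_rfl h2
    subst h4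
    match b with
    | 0 => simp at hy
    | 1 => simpa using hy
    | b + 2 =>
      have := Nat.pow_le_pow_left hq2 (b + 2)
      have h5 : 3 ^ 2 ≤ 3 ^ (b + 2) := Nat.pow_le_pow_right (by norm_num) (by omega)
      omega
  · left
    obtain ⟨x, rfl⟩ : ∃ x, q = x + 1 := ⟨q - 1, by omega⟩
    have h1 := geom_sum_mul_add x n
    set c := ∑ i ∈ Finset.range n, (x + 1) ^ i
    have hc : Odd c := by
      rw [Finset.odd_sum_iff_odd_card_odd, Finset.filter_true_of_mem fun i _ => hq.pow,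
        Finset.card_range]
      exact ho
    have h2 : c ∣ 2 ^ a := ⟨x, by omega⟩
    have h3 : c = 1 := Nat.eq_one_of_dvd_coprimes (Nat.Coprime.pow_right a hc.coprime_two_right) dvd_rfl h2
    rw [h3, one_mul] at h1
    exact Nat.pow_right_injective (show 2 ≤ x + 1 by omega) (h1.symm.trans (pow_one _).symm)

/-- `2 × 2` matrices over `ZMod 3` as quadruples -/
def m3 (A B : ZMod 3 × ZMod 3 × ZMod 3 × ZMod 3) : ZMod 3 × ZMod 3 × ZMod 3 × ZMod 3 :=
  (A.1 * B.1 + A.2.1 * B.2.2.1, A.1 * B.2.1 + A.2.1 * B.2.2.2,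
    A.2.2.1 * B.1 + A.2.2.2 * B.2.2.1, A.2.2.1 * B.2.1 + A.2.2.2 * B.2.2.2)

set_option synthInstance.maxSize 2000 in
theorem m3_key : ∀ A B : ZMod 3 × ZMod 3 × ZMod 3 × ZMod 3, m3 (m3 A B) A = B →
    B.1 * B.2.2.2 - B.2.1 * B.2.2.1 = 0 ∨ m3 (m3 A A) (m3 A A) = (1, 0, 0, 1) ∨
      m3 (m3 (m3 A A) A) (m3 (m3 A A) A) = (1, 0, 0, 1) := by
  decide +kernel

theorem gl23 (a b : GL (Fin 2) (ZMod 3)) (h : a * b * a = b) : a ^ 12 = 1 := by
  let t : GL (Fin 2) (ZMod 3) → ZMod 3 × ZMod 3 × ZMod 3 × ZMod 3 := fun x =>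
    (x 0 0, x 0 1, x 1 0, x 1 1)
  have ht : ∀ x y, t (x * y) = m3 (t x) (t y) := fun x y => by
    simp [t, m3, Matrix.mul_apply, Fin.sum_univ_two]
  have h1 : ∀ x, t x = (1, 0, 0, 1) → x = 1 := fun x hx => by
    simp only [t, Prod.mk.injEq] at hx
    ext i j
    fin_cases i <;> fin_cases j <;> simp [hx]
  rcases m3_key (t a) (t b) (by rw [← ht, ← ht, h]) with h2 | h2 | h2
  · exact absurd (by rw [Matrix.det_fin_two]; exact h2) b.det_ne_zero
  · simp only [← ht] at h2
    have : a ^ 12 = (a * a * (a * a)) ^ 3 := by simp only [pow_succ, pow_zero, one_mul, mul_assoc]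
    rw [this, h1 _ h2, one_pow]
  · simp only [← ht] at h2
    have : a ^ 12 = (a * a * a * (a * a * a)) ^ 2 := by
      simp only [pow_succ, pow_zero, one_mul, mul_assoc]
    rw [this, h1 _ h2, one_pow]

variable {G : Type*} [Group G] [Finite G]

theorem trans_class (q : ℕ) [Fact q.Prime] {V : Type*} [AddCommGroup V] [Module (ZMod q) V]
    [Finite V] [Nontrivial V] [Nontrivial G] (p : ℕ) [Fact p.Prime] (hG : IsPGroup p G)
    (ρ : G →* (V ≃ₗ[ZMod q] V)) (hρ : Function.Injective ρ)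
    (htrans : ∀ v w : V, v ≠ 0 → w ≠ 0 → ∃ g : G, ρ g v = w) :
    (q = 2 ∧ p = Nat.card V - 1 ∧ Nat.card G = p) ∨
    (p = 2 ∧ Nat.card V = q ∧ (∃ m : ℕ, q = 2 ^ m + 1 ∧ Nat.card G = 2 ^ m) ∧ IsCyclic G) ∨
    (p = 2 ∧ q = 3 ∧ Nat.card V = 9 ∧
      ((IsCyclic G ∧ Nat.card G = 8) ∨ Nonempty (G ≃* QuaternionGroup 2) ∨
        (Cfsg.IsQuasiDihedral G ∧ Nat.card G = 16))) := by
  have hp : p.Prime := Fact.out
  have hq : q.Prime := Fact.out
  have hirr : ∀ W : Submodule (ZMod q) V, (∀ g : G, ∀ w ∈ W, ρ g w ∈ W) → W = ⊥ ∨ W = ⊤ := by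
    intro W hW
    refine or_iff_not_imp_left.2 fun h0 => eq_top_iff.2 fun w _ => ?_
    obtain ⟨v, hv, hv0⟩ := (Submodule.ne_bot_iff W).1 h0
    by_cases hw : w = 0
    · exact hw ▸ W.zero_mem
    obtain ⟨g, rfl⟩ := htrans v w hv0 hw
    exact hW g v hv
  obtain ⟨v, hv⟩ := exists_ne (0 : V)
  let _ : MulAction G V := MulAction.compHom V ρ
  have hsm : ∀ (g : G) (w : V), g • w = ρ g w := fun _ _ => rfl
  have horb : Nat.card (MulAction.orbit G v) + 1 = Nat.card V := by
    have : MulAction.orbit G v = {0}ᶜ := by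
      ext w
      constructor
      · rintro ⟨g, rfl⟩ e
        exact hv ((ρ g).map_eq_zero_iff.1 e)
      · exact fun hw => htrans v w hv hw
    rw [this, Nat.card_coe_set_eq, ← Set.ncard_singleton (0 : V), add_comm, Set.ncard_add_ncard_compl]
  have hos : (MulAction.stabilizer G v).index = Nat.card (MulAction.orbit G v) := by
    rw [MulAction.index_stabilizer, Nat.card_coe_set_eq]
  obtain ⟨a, ha⟩ := hG.index (MulAction.stabilizer G v)
  have hV : Nat.card V = q ^ Module.finrank (ZMod q) V := by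
    rw [Module.natCard_eq_pow_finrank (K := ZMod q), Nat.card_zmod]
  set n := Module.finrank (ZMod q) V with hn
  have heq : q ^ n = p ^ a + 1 := by rw [← hV, ← horb, ← hos, ha]
  have hstab : ∀ g ∈ center G, ρ g v = v → g = 1 := fun g hg h => by
    by_contra h1
    exact hv ((Submodule.mem_bot _).1 (fix_center ρ hρ hirr hg h1 ▸ (mem_fix ρ).2 h))
  have ha0 : a ≠ 0 := by
    rintro rfl
    obtain ⟨z, -, hz, hz1⟩ := exists_central hG (W := ⊤) top_ne_bot
    rw [pow_zero, index_eq_one] at ha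
    exact hz1 (hstab z hz (show z ∈ MulAction.stabilizer G v from ha ▸ mem_top z))
  have hcomm : (∀ g h : G, g * h = h * g) → Nat.card G = p ^ a := fun hc => by
    have : MulAction.stabilizer G v = ⊥ := eq_bot_iff.2 fun g hg =>
      hstab g (mem_center_iff.2 fun h => hc h g) hg
    rw [← ha, this, index_bot]
  have hpq : q = 2 ∨ (p = 2 ∧ q ≠ 2) := by
    by_contra hc
    push Not at hc
    have h1 := (hq.odd_of_ne_two hc.1).pow (n := n)
    have h2 := (hp.odd_of_ne_two fun e => hc.1 (hc.2 e)).pow (n := a)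
    rw [heq] at h1
    exact (Nat.not_odd_iff_even.2 h2.add_one) h1
  have hp2 : q = 2 → p ≠ 2 := by
    rintro rfl rfl
    have h1 : 2 ∣ 2 ^ n := dvd_pow_self 2 (by rintro h; rw [h] at heq; have := Nat.two_pow_pos a; omega)
    have h2 : 2 ∣ 2 ^ a := dvd_pow_self 2 ha0
    omega
  rcases imprim_or hG q ρ hρ hirr with hc | ⟨h2, k, x, hm⟩ | ⟨H, W, h1, h2, h3, h4, h5, h6⟩
  · have hcard := hcomm fun g h => (IsCyclic.commGroup (α := G)).mul_comm g h
    rcases hpq with rfl | ⟨rfl, hq2⟩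
    · have := two_pow_eq (hp.odd_of_ne_two (hp2 rfl)) ha0 hp.one_lt.ne' heq
      subst this
      exact Or.inl ⟨rfl, by rw [hV, heq]; simp, by rw [hcard, pow_one]⟩
    rcases pow_eq_two_pow (hq.odd_of_ne_two hq2) hq.one_lt.ne' heq with h | ⟨rfl, h⟩
    · rw [h, pow_one] at heq hV
      exact Or.inr (Or.inl ⟨rfl, hV, ⟨a, heq, hcard⟩, hc⟩)
    · rw [h] at heq hV
      exact Or.inr (Or.inr ⟨rfl, rfl, hV, Or.inl ⟨hc, by omega⟩⟩)
  · subst h2
    have hq2 : q ≠ 2 := fun e => hp2 e rfl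
    have hcG : Nat.card G = 2 ^ (k + 3) := by rw [← hm.card_eq, card_top]
    rcases pow_eq_two_pow (hq.odd_of_ne_two hq2) hq.one_lt.ne' heq with h | ⟨rfl, h⟩
    · exfalso
      have hsp := (finrank_eq_one_iff_of_nonzero' v hv).1 h
      have hc : ∀ g h : G, g * h = h * g := fun g h => hρ (by
        ext w
        obtain ⟨c, rfl⟩ := hsp w
        obtain ⟨c1, e1⟩ := hsp (ρ g v)
        obtain ⟨c2, e2⟩ := hsp (ρ h v)
        rw [map_smul, map_smul, mul_app, mul_app, ← e1, ← e2, map_smul, map_smul, ← e1, ← e2,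
          smul_comm c1])
      exact hm.not_comm ⟨⟨fun g h => Subtype.ext (hc g h)⟩⟩
    rw [h] at heq hV
    have h8 : 2 ^ a = 8 := by omega
    obtain ⟨f, hf⟩ := DL.exists_GL (K := ZMod 3) (Q := G) (V := V)
      ((LinearEquiv.automorphismGroup.toLinearMapMonoidHom).comp ρ)
      (fun g h e => hρ (LinearEquiv.toLinearMap_injective e)) h.le
    have hk : k ≤ 1 := by
      have h1 := card_dvd_of_injective f hf
      rw [Matrix.card_GL_field, hcG] at h1
      by_contra hc
      have h2 : 2 ^ 5 ∣ 2 ^ (k + 3) := pow_dvd_pow 2 (by omega)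
      have := h2.trans h1
      simp [Fin.prod_univ_two] at this
    have h12 : ∀ g h : G, g * h * g = h → g ^ 12 = 1 := fun g h e => hf (by
      rw [map_pow, map_one]; exact gl23 _ (f h) (by rw [← map_mul, ← map_mul, e]))
    refine Or.inr (Or.inr ⟨rfl, rfl, hV, Or.inr ?_⟩)
    interval_cases k
    · rcases hm.types_top with ⟨⟨e⟩⟩ | h | ⟨m, h1, h2, -⟩
      · exfalso
        have hreg : ∀ g : G, ∀ w, w ≠ 0 → ρ g w = w → g = 1 := by
          have h0 : MulAction.stabilizer G v = ⊥ := by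
            rw [← card_eq_one]
            have := card_mul_index (MulAction.stabilizer G v)
            rw [ha, h8, hcG] at this
            omega
          intro g w hw h
          obtain ⟨y, rfl⟩ := htrans v w hv hw
          have : y⁻¹ * g * y ∈ MulAction.stabilizer G v := by
            change ρ _ v = v
            rw [mul_app, mul_app, h, ← mul_app, inv_mul_cancel, map_one]; rfl
          rw [h0, mem_bot] at this
          calc g = y * (y⁻¹ * g * y) * y⁻¹ := by group
            _ = 1 := by rw [this]; group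
        have hneg : ∀ g : G, g ≠ 1 → g ^ 2 = 1 → ∀ w, ρ g w = -w := fun g h1 h2 w => by
          have := norm_mem_fix ρ h2 w
          by_contra hc
          refine h1 (hreg g _ (fun e => hc ?_) this)
          simp only [Finset.sum_range_succ, Finset.sum_range_zero, pow_zero, map_one, pow_one,
            zero_add] at e
          exact eq_neg_of_add_eq_zero_right e
        have h1 : ∀ i, ∀ w, ρ (e.symm (DihedralGroup.sr i)) w = -w := fun i =>
          hneg _ (fun h => by
            rw [← e.symm.map_one] at h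
            exact absurd (e.symm.injective h) (by rw [DihedralGroup.one_def]; exact fun h => by cases h))
            (by rw [sq (e.symm _), ← map_mul, DihedralGroup.sr_mul_self, map_one])
        have h2 : e.symm (DihedralGroup.sr 0) = e.symm (DihedralGroup.sr 1) :=
          hρ (LinearEquiv.ext fun w => by rw [h1, h1])
        exact absurd (e.symm.injective h2) (by decide)
      · exact Or.inl h
      · have := Nat.pow_right_injective le_rfl (h2.symm.trans hcG)
        omega
    · rcases hm.types_top with ⟨⟨e⟩⟩ | ⟨⟨e⟩⟩ | h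
      · have := h12 (e.symm (DihedralGroup.r 1)) (e.symm (DihedralGroup.sr 0))
          (by rw [← map_mul, ← map_mul]; congr 1)
        rw [← map_pow, ← e.symm.map_one] at this
        exact absurd (e.symm.injective this) (by decide)
      · have := h12 (e.symm (QuaternionGroup.a 1)) (e.symm (QuaternionGroup.xa 0))
          (by rw [← map_mul, ← map_mul]; congr 1)
        rw [← map_pow, ← e.symm.map_one] at this
        exact absurd (e.symm.injective this) (by decide)
      · exact Or.inr ⟨h, hcG⟩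
  · exfalso
    obtain ⟨i, hi⟩ : ∃ i, W i ≠ ⊥ := by
      by_contra hc
      push Not at hc
      exact bot_ne_top ((iSup_eq_bot.2 hc).symm.trans h2)
    obtain ⟨j, hji, hj⟩ : ∃ j, j ≠ i ∧ W j ≠ ⊥ := by
      by_contra hc
      push Not at hc
      obtain ⟨h, -, h7, h8⟩ := h5 i
      refine h7 (hρ ?_)
      rw [map_one]
      have : (⊤ : Submodule (ZMod q) V) ≤ W i := h2 ▸ iSup_le fun j => by
        by_cases e : j = i
        · exact e ▸ le_rfl
        · rw [hc j e]; exact bot_le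
      exact LinearEquiv.ext fun w => h8 w (this Submodule.mem_top)
    obtain ⟨x, hx, hx0⟩ := (Submodule.ne_bot_iff _).1 hi
    obtain ⟨y, hy, hy0⟩ := (Submodule.ne_bot_iff _).1 hj
    have hd : ∀ i, ∀ w ∈ W i, w ∈ (⨆ j, ⨆ (_ : j ≠ i), W j) → w = 0 := fun i =>
      Submodule.disjoint_def.1 (h3 i)
    have hm : ∀ i j, j ≠ i → ∀ w ∈ W j, w ∈ (⨆ j, ⨆ (_ : j ≠ i), W j) := fun i j h w hw =>
      Submodule.mem_iSup_of_mem j (Submodule.mem_iSup_of_mem h hw)
    have hk : ∃ k, x + y ∈ W k := by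
      by_cases h0 : x + y = 0
      · exact ⟨i, h0 ▸ (W i).zero_mem⟩
      obtain ⟨g, hg⟩ := htrans x (x + y) hx0 h0
      by_cases hH : g ∈ H
      · exact ⟨i, hg ▸ h4 g hH i x hx⟩
      obtain ⟨σ, -, hσ⟩ := h6 g hH
      exact ⟨σ i, hσ i ▸ ⟨x, hx, hg⟩⟩
    obtain ⟨k, hk⟩ := hk
    by_cases e : k = i
    · subst e
      exact hy0 (hd k y (by simpa using (W k).sub_mem hk hx) (hm k j hji y hy))
    · exact hx0 (hd i x hx (by simpa using Submodule.sub_mem _ (hm i k e _ hk) (hm i j hji y hy)))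

end H3.Imp
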